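import Cfsg.Agent.H70.AutPSU.Transfer

/-!
The classes of involutory graph automorphisms of `PSU n`.
-/

set_option autoImplicit false

namespace Cfsg.Agent.H70.AutPSU

open Matrix Cfsg.Agent.H3 Cfsg.Agent.H23.Descent Cfsg.Agent.H23.AutPSU
open Cfsg.Agent.H62.GraphPSL (ofForm isGraph_ofForm)

variable {F : Type*} [Field F] [Fintype F] {F₀ : Type*} [Field F₀] [Fintype F₀] {p f q n m : ℕ}

/-- The data `p, f` from the order of the subfield. -/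
theorem exists_pf (hF₀ : Fintype.card F₀ = q) : ∃ p f : ℕ, Fact p.Prime ∧ q = p ^ f ∧ 1 ≤ f := by
  obtain ⟨p, _⟩ := CharP.exists F₀
  obtain ⟨f, hp, hc⟩ := FiniteField.card F₀ p
  exact ⟨p, f, ⟨hp⟩, hF₀.symm.trans hc, f.2⟩

theorem odd_dim_result [Fact p.Prime] (hq : q = p ^ f) (hf : 1 ≤ f) (hF : Fintype.card F = q ^ 2)
    (hF₀ : Fintype.card F₀ = q) (hn : 3 ≤ n) (hnm : n = 2 * m + 1) {γ γ' : MulAut (Cfsg.PSU n F q)}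
    (hγ : Cfsg.IsGraphAutClassPSU γ) (hγ2 : orderOf γ = 2) (hγ' : Cfsg.IsGraphAutClassPSU γ')
    (hγ'2 : orderOf γ' = 2) :
    Nonempty (↥(Cfsg.inndiagPSU n F q ⊓ Subgroup.centralizer {γ}) ≃* Cfsg.PGO F₀ (Cfsg.quadFormOdd m F₀)) ∧
      Cfsg.IsConjUnder (Cfsg.inndiagPSU n F q) γ γ' := by
  obtain ⟨P⟩ := exists_pair (F₀ := F₀) hF hF₀
  obtain ⟨ε, θ, k, H, h⟩ := exists_rep P hq hf hn hγ hγ2
  obtain ⟨ε', θ', k', H', h'⟩ := exists_rep P hq hf hn hγ' hγ'2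
  obtain ⟨⟨e⟩, hc⟩ := H62.GraphPSL.odd_dim_result hn hnm (isGraph_ofForm hn (formGL h)) (formGL_order hn h)
    (isGraph_ofForm hn (formGL h')) (formGL_order hn h')
  obtain ⟨e'⟩ := centralizer_transfer hn h
  exact ⟨⟨e'.trans e⟩, (conj_transfer hn h h').2 hc⟩

theorem even_odd_q_result (hodd : Odd q) (hF : Fintype.card F = q ^ 2) (hF₀ : Fintype.card F₀ = q)
    (hm : 2 ≤ m) (hnm : n = 2 * m) :
    ∃ (γ₁ γ₂ γ₃ : MulAut (Cfsg.PSU n F q)) (a b : F₀),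
      (∀ z₁ z₂ : F₀, z₁ ^ 2 + a * z₁ * z₂ + b * z₂ ^ 2 = 0 → z₁ = 0 ∧ z₂ = 0) ∧
      Cfsg.IsGraphAutClassPSU γ₁ ∧ orderOf γ₁ = 2 ∧ Cfsg.IsGraphAutClassPSU γ₂ ∧ orderOf γ₂ = 2 ∧
      Cfsg.IsGraphAutClassPSU γ₃ ∧ orderOf γ₃ = 2 ∧
      ¬ Cfsg.IsConjUnder (Cfsg.inndiagPSU n F q) γ₁ γ₂ ∧ ¬ Cfsg.IsConjUnder (Cfsg.inndiagPSU n F q) γ₁ γ₃ ∧
      ¬ Cfsg.IsConjUnder (Cfsg.inndiagPSU n F q) γ₂ γ₃ ∧
      (∀ γ : MulAut (Cfsg.PSU n F q), Cfsg.IsGraphAutClassPSU γ → orderOf γ = 2 →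
        Cfsg.IsConjUnder (Cfsg.inndiagPSU n F q) γ₁ γ ∨ Cfsg.IsConjUnder (Cfsg.inndiagPSU n F q) γ₂ γ ∨
          Cfsg.IsConjUnder (Cfsg.inndiagPSU n F q) γ₃ γ) ∧
      Nonempty (↥(Cfsg.inndiagPSU n F q ⊓ Subgroup.centralizer {γ₁}) ≃* Cfsg.PGSp m F₀) ∧
      Nonempty (↥(Cfsg.inndiagPSU n F q ⊓ Subgroup.centralizer {γ₂}) ≃*
        Cfsg.PGO F₀ (Cfsg.quadFormPlus m F₀)) ∧
      Nonempty (↥(Cfsg.inndiagPSU n F q ⊓ Subgroup.centralizer {γ₃}) ≃*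
        Cfsg.PGO F₀ (Cfsg.quadFormMinus (m - 1) F₀ a b)) := by
  obtain ⟨p, f, _, hq, hf⟩ := exists_pf hF₀
  obtain ⟨P⟩ := exists_pair (F₀ := F₀) hF hF₀
  have hn : 3 ≤ n := by omega
  obtain ⟨d₁, d₂, d₃, a, b, hab, g₁, o₁, g₂, o₂, g₃, o₃, n12, n13, n23, hall, ⟨e₁⟩, ⟨e₂⟩, ⟨e₃⟩⟩ :=
    H62.GraphPSL.even_odd_q_result (F := F₀) (n := n) (hF₀ ▸ hodd) hm hnm
  obtain ⟨c₁, _, _, _, _, h₁, rfl⟩ := exists_rep_of_graph P hn g₁ o₁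
  obtain ⟨c₂, _, _, _, _, h₂, rfl⟩ := exists_rep_of_graph P hn g₂ o₂
  obtain ⟨c₃, _, _, _, _, h₃, rfl⟩ := exists_rep_of_graph P hn g₃ o₃
  obtain ⟨e₁'⟩ := centralizer_transfer hn h₁
  obtain ⟨e₂'⟩ := centralizer_transfer hn h₂
  obtain ⟨e₃'⟩ := centralizer_transfer hn h₃
  refine ⟨c₁, c₂, c₃, a, b, hab, (h₁.isGraph hn).1, (h₁.isGraph hn).2, (h₂.isGraph hn).1, (h₂.isGraph hn).2,
    (h₃.isGraph hn).1, (h₃.isGraph hn).2, fun h => n12 ((conj_transfer hn h₁ h₂).1 h),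
    fun h => n13 ((conj_transfer hn h₁ h₃).1 h), fun h => n23 ((conj_transfer hn h₂ h₃).1 h), ?_,
    ⟨e₁'.trans e₁⟩, ⟨e₂'.trans e₂⟩, ⟨e₃'.trans e₃⟩⟩
  intro γ hγ hγ2
  obtain ⟨ε, θ, k, H, h⟩ := exists_rep P hq hf hn hγ hγ2
  exact (hall _ (isGraph_ofForm hn _) (formGL_order hn h)).imp (conj_transfer hn h₁ h).2
    (Or.imp (conj_transfer hn h₂ h).2 (conj_transfer hn h₃ h).2)

theorem even_char_two_result [CharP F₀ 2] (hF : Fintype.card F = q ^ 2) (hF₀ : Fintype.card F₀ = q)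
    (hm : 2 ≤ m) (hnm : n = 2 * m) :
    ∃ (γ₁ γ₃ : MulAut (Cfsg.PSU n F q)) (t : ↥(Matrix.symplecticGroup (Fin m) F₀)),
      Cfsg.IsTransvection (t : Matrix (Fin m ⊕ Fin m) (Fin m ⊕ Fin m) F₀) ∧
      Cfsg.IsGraphAutClassPSU γ₁ ∧ orderOf γ₁ = 2 ∧ Cfsg.IsGraphAutClassPSU γ₃ ∧ orderOf γ₃ = 2 ∧
      ¬ Cfsg.IsConjUnder (Cfsg.inndiagPSU n F q) γ₁ γ₃ ∧
      (∀ γ : MulAut (Cfsg.PSU n F q), Cfsg.IsGraphAutClassPSU γ → orderOf γ = 2 →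
        Cfsg.IsConjUnder (Cfsg.inndiagPSU n F q) γ₁ γ ∨ Cfsg.IsConjUnder (Cfsg.inndiagPSU n F q) γ₃ γ) ∧
      Nonempty (↥(Cfsg.inndiagPSU n F q ⊓ Subgroup.centralizer {γ₁}) ≃* ↥(Matrix.symplecticGroup (Fin m) F₀)) ∧
      Nonempty (↥(Cfsg.inndiagPSU n F q ⊓ Subgroup.centralizer {γ₃}) ≃*
        ↥(Subgroup.centralizer ({t} : Set ↥(Matrix.symplecticGroup (Fin m) F₀)))) := by
  obtain ⟨p, f, _, hq, hf⟩ := exists_pf hF₀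
  obtain ⟨P⟩ := exists_pair (F₀ := F₀) hF hF₀
  have hn : 3 ≤ n := by omega
  obtain ⟨d₁, d₃, t, ht, g₁, o₁, g₃, o₃, n13, hall, ⟨e₁⟩, ⟨e₃⟩⟩ :=
    H62.GraphPSL.even_char_two_result (F := F₀) (n := n) hm hnm
  obtain ⟨c₁, _, _, _, _, h₁, rfl⟩ := exists_rep_of_graph P hn g₁ o₁
  obtain ⟨c₃, _, _, _, _, h₃, rfl⟩ := exists_rep_of_graph P hn g₃ o₃
  obtain ⟨e₁'⟩ := centralizer_transfer hn h₁
  obtain ⟨e₃'⟩ := centralizer_transfer hn h₃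
  refine ⟨c₁, c₃, t, ht, (h₁.isGraph hn).1, (h₁.isGraph hn).2, (h₃.isGraph hn).1, (h₃.isGraph hn).2,
    fun h => n13 ((conj_transfer hn h₁ h₃).1 h), ?_, ⟨e₁'.trans e₁⟩, ⟨e₃'.trans e₃⟩⟩
  intro γ hγ hγ2
  obtain ⟨ε, θ, k, H, h⟩ := exists_rep P hq hf hn hγ hγ2
  exact (hall _ (isGraph_ofForm hn _) (formGL_order hn h)).imp (conj_transfer hn h₁ h).2
    (conj_transfer hn h₃ h).2

/-- The centraliser of the standard field automorphism, `4 ∣ n`. -/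
theorem field_aut_centralizer (hodd : Odd q) (hF : Fintype.card F = q ^ 2) (hF₀ : Fintype.card F₀ = q)
    (hm : 2 ≤ m) (hnm : n = 2 * m) (h4 : 4 ∣ n) {σ : F ≃+* F} (hσ : ∀ a, σ a = a ^ q)
    {φ : MulAut (Cfsg.PSU n F q)} (hφ : Cfsg.IsFieldAutPSUOf σ φ) :
    Nonempty (↥(Cfsg.inndiagPSU n F q ⊓ Subgroup.centralizer {φ}) ≃*
      Cfsg.PGO F₀ (Cfsg.quadFormPlus m F₀)) := by
  obtain ⟨P⟩ := exists_pair (F₀ := F₀) hF hF₀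
  have hn : 3 ≤ n := by omega
  obtain rfl : σ = P.sig := RingEquiv.ext fun a => (hσ a).trans (P.sig_apply a).symm
  obtain rfl := isFieldAut_iff.1 hφ
  have h : Rep P (semiAut (1 : Cfsg.GU n F q) P.sig) (1 : F₀) (1 : F) 1 (1 : Matrix (Fin n) (Fin n) F₀) :=
    ⟨⟨Or.inl rfl, one_ne_zero, by simp, by simp, by simp⟩, by simp, 1, 1, by simp, by simp [scal_one], rfl⟩
  have h2 : (2 : F₀) ≠ 0 := H4.two_ne_zero_of_odd_card (hF₀ ▸ hodd)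
  have he : Even m := by obtain ⟨j, hj⟩ := h4; exact ⟨j, by omega⟩
  obtain ⟨e⟩ := H62.GraphPSL.centralizer_plus (G := formGL h) (by omega) h2 hnm
    (by rw [formGL_coe, Matrix.transpose_one])
    (by rw [formGL_coe, he.neg_one_pow, Matrix.det_one, one_mul]; exact IsSquare.one)
  obtain ⟨e'⟩ := centralizer_transfer hn h
  exact ⟨e'.trans e⟩

end Cfsg.Agent.H70.AutPSU
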