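import Cfsg.Agent.H70.AutPSU.Transfer
import Cfsg.Agent.H62.GraphPSL.Split

/-!
How the class of an involutory graph automorphism of `PSU n` splits under inner automorphisms.
-/

set_option autoImplicit false

namespace Cfsg.Agent.H70.AutPSU

open Matrix Cfsg.Agent.H3 Cfsg.Agent.H23.Descent Cfsg.Agent.H23.AutPSU
open Cfsg.Agent.H62.GraphPSL (ofForm formSim IsAltMat)

variable {F : Type*} [Field F] [Fintype F] {F₀ : Type*} [Field F₀] [Fintype F₀] {q n m : ℕ}
  {P : Pair F F₀ q} {γ : MulAut (Cfsg.PSU n F q)} {ε : F₀} {θ : F} {k : GL (Fin n) F}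
  {H : Matrix (Fin n) (Fin n) F₀}

local notation "detG" => (Matrix.GeneralLinearGroup.det : GL (Fin n) F₀ →* F₀ˣ)

/-- The determinants of the centralising unitary matrices. -/
noncomputable def detStab (h : Rep P γ ε θ k H) : stabPair P H →* normOne F q :=
  (detU P.hF).comp (stabHom h)

theorem coe_detStab (h : Rep P γ ε θ k H) (p : stabPair P H) :
    ((detStab h p : Fˣ) : F) = (p.1.1 : F) ^ n * P.ι (detG p.1.2 : F₀ˣ) := by
  show ((detU P.hF (stabHom h p) : Fˣ) : F) = _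
  rw [coe_detU, coe_stabHom, Units.val_mul, Units.val_mul, Matrix.coe_units_inv,
    Matrix.det_conj k.isUnit, Units.val_mul, coe_scal, smul_mul_assoc, one_mul, Matrix.det_smul, Fintype.card_fin,
    P.ιG_coe, ← RingHom.mapMatrix_apply, ← RingHom.map_det, Matrix.GeneralLinearGroup.val_det_apply]

/-- The number of inner classes as an index in the norm-one group. -/
theorem split_index (hn : 3 ≤ n) (h : Rep P γ ε θ k H) :
    Cfsg.splitClassCount (Cfsg.inndiagPSU n F q) (Cfsg.Inn (Cfsg.PSU n F q)) γ =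
      ((powMonoidHom n : normOne F q →* _).range ⊔ (detStab h).range).index := by
  rw [splitClassCount_eq _ _ inn_le_inndiag, centralizer_eq hn h]
  set S := (powMonoidHom n : normOne F q →* _).range ⊔ (detStab h).range with hS
  set T := Cfsg.Inn (Cfsg.PSU n F q) ⊔ (diagHom.comp (stabHom h)).range with hT
  let d : Cfsg.GU n F q →* Cfsg.inndiagPSU n F q :=
    diagHom.codRestrict _ fun g => mem_inndiag_iff.2 ⟨g, rfl⟩
  have hd : Function.Surjective d := fun α => by
    obtain ⟨g, hg⟩ := mem_inndiag_iff.1 α.2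
    exact ⟨g, Subtype.ext hg.symm⟩
  rw [← Subgroup.index_comap_of_surjective _ hd,
    ← Subgroup.index_comap_of_surjective S (detU_surjective P.hF (by omega : 1 ≤ n))]
  refine congrArg Subgroup.index ?_
  ext g
  simp only [Subgroup.mem_comap, Subgroup.mem_subgroupOf]
  show semiAut g 1 ∈ T ↔ detU P.hF g ∈ S
  constructor
  · intro hg
    obtain ⟨t, ht, _, ⟨p, rfl⟩, htp⟩ := Subgroup.mem_sup_of_normal_left.1 hg
    have h1 : semiAut (g * (stabHom h p)⁻¹) 1 ∈ Cfsg.Inn (Cfsg.PSU n F q) := by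
      rw [← diagHom_apply, map_mul, map_inv, diagHom_apply g, ← htp, MonoidHom.comp_apply,
        mul_inv_cancel_right]
      exact ht
    rw [semiAut_mem_inn_iff P.hF hn, map_mul, map_inv] at h1
    have h2 : detU P.hF g = detU P.hF g * (detStab h p)⁻¹ * detStab h p := by rw [inv_mul_cancel_right]
    rw [h2]
    exact Subgroup.mul_mem_sup h1 ⟨p, rfl⟩
  · intro hg
    obtain ⟨a, ha, _, ⟨p, rfl⟩, e⟩ := Subgroup.mem_sup.1 hg
    have h1 : semiAut (g * (stabHom h p)⁻¹) 1 ∈ Cfsg.Inn (Cfsg.PSU n F q) := by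
      rw [semiAut_mem_inn_iff P.hF hn, map_mul, map_inv, ← e]
      show a * detStab h p * (detStab h p)⁻¹ ∈ _
      rwa [mul_inv_cancel_right]
    have h2 := Subgroup.mul_mem_sup h1 (show (diagHom.comp (stabHom h)) p ∈ (diagHom.comp (stabHom h)).range from ⟨p, rfl⟩)
    rwa [MonoidHom.comp_apply, ← diagHom_apply, ← map_mul, inv_mul_cancel_right, diagHom_apply] at h2

/-- The multiplier attached to a stabilising pair. -/
theorem exists_mult (p : stabPair P H) :
    ∃ c : F₀ˣ, (p.1.2 : Matrix (Fin n) (Fin n) F₀)ᵀ * H * (p.1.2 : Matrix (Fin n) (Fin n) F₀) = (c : F₀) • H ∧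
      (p.1.1 : F) * P.sig p.1.1 * P.ι c = 1 := by
  have hp : ((p.1.1 : F) * P.sig p.1.1) • ((p.1.2 : Matrix (Fin n) (Fin n) F₀)ᵀ * H *
      (p.1.2 : Matrix (Fin n) (Fin n) F₀)).map P.ι = H.map P.ι := p.2
  obtain ⟨c, hc⟩ := P.exists_ι_of_fixed (y := ((p.1.1 : F) * P.sig p.1.1)⁻¹) (by
    rw [map_inv₀, map_mul, P.sig_sig, mul_comm])
  have hN : (p.1.1 : F) * P.sig p.1.1 ≠ 0 := mul_ne_zero p.1.1.ne_zero ((map_ne_zero _).2 p.1.1.ne_zero)
  have hc0 : c ≠ 0 := fun h0 => by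
    rw [h0, map_zero] at hc; exact inv_ne_zero hN hc.symm
  refine ⟨Units.mk0 c hc0, Matrix.ext fun i j => P.ι.injective ?_, by rw [Units.val_mk0, hc, mul_inv_cancel₀ hN]⟩
  have e := congrFun (congrFun hp i) j
  simp only [Matrix.smul_apply, Matrix.map_apply, smul_eq_mul] at e
  rw [Matrix.smul_apply, smul_eq_mul, map_mul, Units.val_mk0, hc, ← e, inv_mul_cancel_left₀ hN]

theorem mem_stabPair_of_mult {A : GL (Fin n) F₀} {c : F₀ˣ} {w : Fˣ}
    (hA : (A : Matrix (Fin n) (Fin n) F₀)ᵀ * H * (A : Matrix (Fin n) (Fin n) F₀) = (c : F₀) • H)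
    (hw : (w : F) * P.sig w * P.ι c = 1) : (w, A) ∈ stabPair P H := by
  show ((w : F) * P.sig w) • _ = H.map P.ι
  rw [hA]
  refine Matrix.ext fun i j => ?_
  simp only [Matrix.smul_apply, Matrix.map_apply, smul_eq_mul, map_mul]
  rw [← mul_assoc, hw, one_mul]

/-- Odd dimension or characteristic two. -/
theorem range_detStab_le (h : Rep P γ ε θ k H) (hnq : Odd n ∨ (2 : F₀) = 0) :
    (detStab h).range ≤ (powMonoidHom n : normOne F q →* _).range := by
  rintro _ ⟨p, rfl⟩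
  obtain ⟨c, hc, hwc⟩ := exists_mult p
  have hdet := H62.GraphPSL.det_sq_eq (G := formGL h) hc
  obtain ⟨v, hv2, hvn⟩ : ∃ v : F₀ˣ, v ^ 2 = c ∧ v ^ n = detG p.1.2 := by
    rcases hnq with ⟨j, hj⟩ | h2
    · have hd : (detG p.1.2 / c ^ j) ^ 2 = c := by
        rw [div_pow, hdet, ← pow_mul, show c ^ n = c ^ (2 * j + 1) from congrArg _ hj, pow_succ, mul_comm j 2]
        exact mul_div_cancel_left _ _
      refine ⟨detG p.1.2 / c ^ j, hd, ?_⟩
      calc (detG p.1.2 / c ^ j) ^ n = ((detG p.1.2 / c ^ j) ^ 2) ^ j * (detG p.1.2 / c ^ j) := by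
            rw [← pow_mul, ← pow_succ]; exact congrArg _ hj
        _ = detG p.1.2 := by rw [hd, mul_div_cancel]
    · haveI : CharP F₀ 2 := H62.GraphPSL.char_two_of h2
      obtain ⟨v, hv⟩ := H62.GraphPSL.exists_sqrt_unit c
      have hv' : v ^ 2 = c := by rw [pow_two]; exact Units.ext hv
      refine ⟨v, hv', Units.ext ?_⟩
      have e : ((v ^ n : F₀ˣ) : F₀) ^ 2 = ((detG p.1.2 : F₀ˣ) : F₀) ^ 2 := by
        rw [← Units.val_pow_eq_pow_val, ← Units.val_pow_eq_pow_val (detG p.1.2), hdet, ← hv', ← pow_mul,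
          ← pow_mul, mul_comm]
      exact (sq_eq_sq_iff_eq_or_eq_neg.1 e).elim id fun e => by rw [e, CharTwo.neg_eq]
  have hz : (p.1.1 * Units.map (P.ι : F₀ →* F) v) ∈ normOne F q := by
    rw [P.mem_normOne_iff]
    show (p.1.1 : F) * P.ι v * P.sig ((p.1.1 : F) * P.ι v) = 1
    rw [map_mul, P.sig_ι, mul_mul_mul_comm, ← map_mul P.ι, ← Units.val_mul, ← pow_two, hv2]
    exact hwc
  refine ⟨⟨_, hz⟩, Subtype.ext (Units.ext ?_)⟩
  rw [coe_detStab, powMonoidHom_apply, Subgroup.coe_pow, Units.val_pow_eq_pow_val, Units.val_mul, mul_pow,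
    ← hvn, Units.val_pow_eq_pow_val, map_pow]
  rfl

/-- Alternating forms. -/
theorem range_detStab_alt (h : Rep P γ ε θ k H) (hnm : n = 2 * m) (hA : IsAltMat H) :
    (detStab h).range = (powMonoidHom m : normOne F q →* _).range := by
  have key : ∀ (p : stabPair P H) (c : F₀ˣ),
      (p.1.2 : Matrix (Fin n) (Fin n) F₀)ᵀ * H * (p.1.2 : Matrix (Fin n) (Fin n) F₀) = (c : F₀) • H →
      ((detStab h p : Fˣ) : F) = ((p.1.1 : F) ^ 2 * P.ι c) ^ m := fun p c hc => by
    rw [coe_detStab, H62.GraphPSL.det_alt_similar hnm (G := formGL h) hA hc, Units.val_pow_eq_pow_val,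
      map_pow, mul_pow, ← pow_mul, ← hnm]
  refine le_antisymm ?_ ?_
  · rintro _ ⟨p, rfl⟩
    obtain ⟨c, hc, hwc⟩ := exists_mult p
    refine ⟨⟨p.1.1 ^ 2 * Units.map (P.ι : F₀ →* F) c, ?_⟩, Subtype.ext (Units.ext ?_)⟩
    · rw [P.mem_normOne_iff]
      show (p.1.1 : F) ^ 2 * P.ι c * P.sig ((p.1.1 : F) ^ 2 * P.ι c) = 1
      rw [map_mul, map_pow, P.sig_ι]
      linear_combination ((p.1.1 : F) * P.sig p.1.1 * P.ι c + 1) * hwc
    · rw [key p c hc, powMonoidHom_apply, Subgroup.coe_pow, Units.val_pow_eq_pow_val]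
      simp
  · rintro _ ⟨z, rfl⟩
    obtain ⟨w, hw⟩ := P.exists_quot (P.mem_normOne_iff.1 z.2)
    have hN : (w : F) * P.sig w ≠ 0 := mul_ne_zero w.ne_zero ((map_ne_zero _).2 w.ne_zero)
    obtain ⟨c, hc⟩ := P.exists_ι_of_fixed (y := ((w : F) * P.sig w)⁻¹) (by
      rw [map_inv₀, map_mul, P.sig_sig, mul_comm])
    have hc0 : c ≠ 0 := fun h0 => by rw [h0, map_zero] at hc; exact inv_ne_zero hN hc.symm
    obtain ⟨A, hA'⟩ := H62.GraphPSL.exists_similar_alt (G := formGL h) hA (Units.mk0 c hc0)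
    rw [formGL_coe] at hA'
    have hwc : (w : F) * P.sig w * P.ι c = 1 := by rw [hc, mul_inv_cancel₀ hN]
    have hmem : (w, A) ∈ stabPair P H := mem_stabPair_of_mult (c := Units.mk0 c hc0) hA' hwc
    have hkey := key ⟨(w, A), hmem⟩ (Units.mk0 c hc0) hA'
    refine ⟨⟨(w, A), hmem⟩, ?_⟩
    apply Subtype.ext
    apply Units.ext
    rw [hkey, powMonoidHom_apply, Subgroup.coe_pow, Units.val_pow_eq_pow_val,
      Units.val_mk0]
    congr 1
    refine mul_left_cancel₀ ((map_ne_zero P.sig).2 w.ne_zero) ?_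
    linear_combination (w : F) * hwc - hw

/-- Symmetric forms in even dimension, odd characteristic. -/
theorem range_detStab_sym (h : Rep P γ ε θ k H) (h2 : (2 : F₀) ≠ 0) (hm : 1 ≤ m) (hnm : n = 2 * m)
    (hs : Hᵀ = H) {e : normOne F q} (he : ((e : Fˣ) : F) = -1) :
    (detStab h).range = (powMonoidHom m : normOne F q →* _).range ⊔ Subgroup.zpowers e := by
  have key : ∀ (p : stabPair P H) (c : F₀ˣ),
      (p.1.2 : Matrix (Fin n) (Fin n) F₀)ᵀ * H * (p.1.2 : Matrix (Fin n) (Fin n) F₀) = (c : F₀) • H →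
      ((detStab h p : Fˣ) : F) = ((p.1.1 : F) ^ 2 * P.ι c) ^ m ∨
        ((detStab h p : Fˣ) : F) = -((p.1.1 : F) ^ 2 * P.ι c) ^ m := fun p c hc => by
    have h1 := congrArg (fun u : F₀ˣ => (u : F₀)) (H62.GraphPSL.det_sq_eq (G := formGL h) hc)
    simp only [Units.val_pow_eq_pow_val] at h1
    rw [show (c : F₀) ^ n = ((c : F₀) ^ m) ^ 2 by rw [← pow_mul, mul_comm, hnm]] at h1
    rcases sq_eq_sq_iff_eq_or_eq_neg.1 h1 with h1 | h1
    · left; rw [coe_detStab, h1, map_pow, mul_pow, ← pow_mul, ← hnm]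
    · right; rw [coe_detStab, h1, map_neg, map_pow, mul_pow, ← pow_mul, ← hnm, mul_neg]
  have hee : e * e = 1 := Subtype.ext (Units.ext (by simp [he]))
  obtain ⟨r, hr, hrd⟩ := H62.GraphPSL.exists_det_neg_one h2 (by omega) (G := formGL h) hs
  rw [formGL_coe] at hr
  have hneg : e ∈ (detStab h).range := by
    refine ⟨⟨(1, r), mem_stabPair_of_mult (c := 1) (hr.trans (one_smul _ _).symm) (by simp)⟩,
      Subtype.ext (Units.ext ?_)⟩
    rw [coe_detStab, he, Matrix.GeneralLinearGroup.val_det_apply, hrd]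
    simp
  refine le_antisymm ?_ (sup_le ?_ (Subgroup.zpowers_le.2 hneg))
  · rintro _ ⟨p, rfl⟩
    obtain ⟨c, hc, hwc⟩ := exists_mult p
    have hz : p.1.1 ^ 2 * Units.map (P.ι : F₀ →* F) c ∈ normOne F q := by
      rw [P.mem_normOne_iff]
      show (p.1.1 : F) ^ 2 * P.ι c * P.sig ((p.1.1 : F) ^ 2 * P.ι c) = 1
      rw [map_mul, map_pow, P.sig_ι]
      linear_combination ((p.1.1 : F) * P.sig p.1.1 * P.ι c + 1) * hwc
    have hp : (⟨_, hz⟩ : normOne F q) ^ m ∈ (powMonoidHom m : normOne F q →* _).range := ⟨_, rfl⟩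
    rcases key p c hc with e' | e'
    · refine Subgroup.mem_sup_left ?_
      convert hp using 1
      exact Subtype.ext (Units.ext (by rw [e', Subgroup.coe_pow, Units.val_pow_eq_pow_val]; simp))
    · have := Subgroup.mul_mem_sup hp (Subgroup.mem_zpowers e)
      convert this using 1
      exact Subtype.ext (Units.ext (by rw [e']; simp [he]))
  · rintro _ ⟨z, rfl⟩
    obtain ⟨w, hw⟩ := P.exists_quot (P.mem_normOne_iff.1 z.2)
    have hN : (w : F) * P.sig w ≠ 0 := mul_ne_zero w.ne_zero ((map_ne_zero _).2 w.ne_zero)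
    obtain ⟨c, hc⟩ := P.exists_ι_of_fixed (y := ((w : F) * P.sig w)⁻¹) (by
      rw [map_inv₀, map_mul, P.sig_sig, mul_comm])
    have hc0 : c ≠ 0 := fun h0 => by rw [h0, map_zero] at hc; exact inv_ne_zero hN hc.symm
    obtain ⟨A, hA'⟩ := H62.GraphPSL.exists_similar_sym h2 hnm (G := formGL h) hs (Units.mk0 c hc0)
    rw [formGL_coe] at hA'
    have hwc : (w : F) * P.sig w * P.ι c = 1 := by rw [hc, mul_inv_cancel₀ hN]
    have hz : (w : F) ^ 2 * P.ι c = ((z : Fˣ) : F) := by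
      refine mul_left_cancel₀ ((map_ne_zero P.sig).2 w.ne_zero) ?_
      linear_combination (w : F) * hwc - hw
    set p : stabPair P H := ⟨(w, A), mem_stabPair_of_mult (c := Units.mk0 c hc0) hA' hwc⟩
    have hm' : detStab h p ∈ (detStab h).range := ⟨p, rfl⟩
    rcases key p (Units.mk0 c hc0) hA' with e' | e'
    · convert hm' using 1
      exact Subtype.ext (Units.ext (by rw [e', powMonoidHom_apply]; simp [p, hz]))
    · have := mul_mem hm' hneg
      convert this using 1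
      exact Subtype.ext (Units.ext (by
        rw [Subgroup.coe_mul, Units.val_mul, e', he, powMonoidHom_apply]; simp [p, hz]))

/-- The number of inner classes. -/
theorem split_result {p f : ℕ} [Fact p.Prime] (hq : q = p ^ f) (hf : 1 ≤ f) (hF : Fintype.card F = q ^ 2)
    (hF₀ : Fintype.card F₀ = q) (hn : 3 ≤ n) (hγ : Cfsg.IsGraphAutClassPSU γ) (hγ2 : orderOf γ = 2) :
    ((Even n ∧ Odd q ∧ Nonempty (↥(Cfsg.inndiagPSU n F q ⊓ Subgroup.centralizer {γ}) ≃* Cfsg.PGSp (n / 2) F₀)) →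
      Cfsg.splitClassCount (Cfsg.inndiagPSU n F q) (Cfsg.Inn (Cfsg.PSU n F q)) γ = Nat.gcd (n / 2) (q + 1)) ∧
    ((Even n ∧ Odd q ∧ ¬ Nonempty (↥(Cfsg.inndiagPSU n F q ⊓ Subgroup.centralizer {γ}) ≃* Cfsg.PGSp (n / 2) F₀)) →
      Cfsg.splitClassCount (Cfsg.inndiagPSU n F q) (Cfsg.Inn (Cfsg.PSU n F q)) γ = Nat.gcd n (q + 1) / 2) ∧
    (¬ (Even n ∧ Odd q) →
      Cfsg.splitClassCount (Cfsg.inndiagPSU n F q) (Cfsg.Inn (Cfsg.PSU n F q)) γ = Nat.gcd n (q + 1)) := by
  obtain ⟨P⟩ := exists_pair (F₀ := F₀) hF hF₀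
  obtain ⟨ε, θ, k, H, h⟩ := exists_rep P hq hf hn hγ hγ2
  obtain ⟨e'⟩ := centralizer_transfer hn h
  rw [split_index hn h]
  have hidx : ∀ a : ℕ, (powMonoidHom a : normOne F q →* _).range.index = Nat.gcd a (q + 1) := fun a => by
    rw [IsCyclic.index_powMonoidHom_range, card_norm_one_units hF, Nat.gcd_comm]
  have hsub : ∀ j : ℕ, n = 2 * j →
      (powMonoidHom n : normOne F q →* _).range ≤ (powMonoidHom j).range := fun j hj => by
    rintro _ ⟨z, rfl⟩
    exact ⟨z ^ 2, by rw [powMonoidHom_apply, powMonoidHom_apply, ← pow_mul, ← hj]⟩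
  have h2 : Odd q → (2 : F₀) ≠ 0 := fun ho => H4.two_ne_zero_of_odd_card (hF₀ ▸ ho)
  refine ⟨fun ⟨he, ho, hiso⟩ => ?_, fun ⟨he, ho, hiso⟩ => ?_, fun hnot => ?_⟩
  · obtain ⟨j, hj⟩ := he
    have hj' : n = 2 * j := by omega
    rw [show n / 2 = j by omega] at hiso ⊢
    have hA : IsAltMat H := by
      rcases h.1.eps with e | e
      · refine absurd ?_ (H62.GraphPSL.not_equiv_pgsp (h2 ho) (by omega) hj' (G := formGL h)
          (by rw [formGL_coe, h.1.transp, e, one_smul]))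
        exact hiso.map fun i => e'.symm.trans i
      · exact H62.GraphPSL.isAltMat_of_skew (h2 ho) (by rw [h.1.transp, e, neg_one_smul])
    rw [range_detStab_alt h hj' hA, sup_eq_right.2 (hsub j hj'), hidx]
  · obtain ⟨j, hj⟩ := he
    have hj' : n = 2 * j := by omega
    rw [show n / 2 = j by omega] at hiso
    have hs : Hᵀ = H := by
      rcases h.1.eps with e | e
      · rw [h.1.transp, e, one_smul]
      · obtain ⟨i⟩ := H62.GraphPSL.centralizer_symp (by omega) hj' (G := formGL h)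
          (H62.GraphPSL.isAltMat_of_skew (h2 ho) (by rw [formGL_coe, h.1.transp, e, neg_one_smul]))
        exact absurd ⟨e'.trans i⟩ hiso
    have h2F : (2 : F) ≠ 0 := by rw [← map_ofNat P.ι 2]; exact (map_ne_zero _).2 (h2 ho)
    set e : normOne F q := ⟨-1, P.mem_normOne_iff.2 (by simp)⟩
    have hord : orderOf e = 2 := by
      refine orderOf_eq_prime (Subtype.ext (by simp [e])) fun h1 => h2F ?_
      have h1' := congrArg (fun z : normOne F q => ((z : Fˣ) : F)) h1
      simp only [e, Units.val_neg, Units.val_one, OneMemClass.coe_one] at h1'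
      linear_combination -h1'
    rw [range_detStab_sym h (h2 ho) (by omega) hj' hs (e := e) (by simp [e]), ← sup_assoc,
      sup_eq_right.2 (hsub j hj'), H70.AutPSL.index_range_pow_sup]
    have hx := (Subgroup.zpowers e).index_mul_card
    rw [Nat.card_zpowers, hord, card_norm_one_units hF] at hx
    rw [← hx, hj', mul_comm _ 2, Nat.gcd_mul_left, Nat.mul_div_cancel_left _ two_pos]
  · have hcase : Odd n ∨ (2 : F₀) = 0 := by
      rcases Nat.even_or_odd n with he | ho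
      · refine Or.inr ?_
        have hp : p = 2 := (Fact.out : p.Prime).eq_two_or_odd'.resolve_right fun hp =>
          hnot ⟨he, hq ▸ hp.pow⟩
        have hc : (Fintype.card F₀ : F₀) = 0 := Nat.cast_card_eq_zero F₀
        rw [hF₀, hq, hp, Nat.cast_pow] at hc
        exact_mod_cast (pow_eq_zero_iff (by omega : f ≠ 0)).1 hc
      · exact Or.inl ho
    rw [sup_eq_left.2 (range_detStab_le h hcase), hidx]

end Cfsg.Agent.H70.AutPSU
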